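/-
Basic theory of the Puig series `L_n(G)` (Bender--Glauberman, Section 3).
-/
import Cfsg.Prelude.Def_OddOrderLocal
import Cfsg.Agent.Lib.OddLocal.PStep
import Cfsg.Agent.Lib.Coprime.Ext

set_option autoImplicit false

namespace Cfsg.Agent.Lib.Puig.Basic

open Cfsg

universe u

section General

variable {G : Type u} [Group G]

theorem puigStep_anti {X Y : Subgroup G} (h : X ≤ Y) : puigStep Y ≤ puigStep X := by
  apply sSup_le_sSup
  rintro A ⟨hA, hYA⟩
  exact ⟨hA, h.trans hYA⟩

theorem puigSeq_zero : puigSeq G 0 = ⊥ := rfl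

theorem puigSeq_succ (n : ℕ) : puigSeq G (n + 1) = puigStep (puigSeq G n) := rfl

theorem zpowers_comm (x : G) : IsMulCommutative (Subgroup.zpowers x) := by
  infer_instance

theorem puigSeq_one : puigSeq G 1 = ⊤ := by
  rw [puigSeq_succ, puigSeq_zero, eq_top_iff]
  intro x _
  have hx : Subgroup.zpowers x ≤ puigStep (⊥ : Subgroup G) :=
    le_sSup ⟨zpowers_comm x, bot_le⟩
  exact hx (Subgroup.mem_zpowers x)

theorem le_puigStep {X A : Subgroup G} (hA : IsMulCommutative A)
    (hXA : X ≤ Subgroup.normalizer (A : Set G)) : A ≤ puigStep X :=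
  le_sSup ⟨hA, hXA⟩

/-- Even terms increase and odd terms decrease. -/
theorem puigSeq_even_succ (n : ℕ) : puigSeq G (2 * n) ≤ puigSeq G (2 * n + 2) ∧
    puigSeq G (2 * n + 3) ≤ puigSeq G (2 * n + 1) := by
  induction n with
  | zero =>
    have h1 : puigSeq G (2 * 0) ≤ puigSeq G (2 * 0 + 2) := by
      simp [puigSeq_zero]
    refine ⟨h1, ?_⟩
    exact puigStep_anti h1
  | succ k ih =>
    have h1 : puigSeq G (2 * (k + 1)) ≤ puigSeq G (2 * (k + 1) + 2) := by
      have : puigStep (puigSeq G (2 * k + 1)) ≤ puigStep (puigSeq G (2 * k + 3)) :=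
        puigStep_anti ih.2
      exact this
    refine ⟨h1, ?_⟩
    exact puigStep_anti h1

theorem puigSeq_even_mono {n m : ℕ} (h : n ≤ m) : puigSeq G (2 * n) ≤ puigSeq G (2 * m) := by
  induction m, h using Nat.le_induction with
  | base => exact le_rfl
  | succ k _ ih => exact ih.trans (puigSeq_even_succ k).1

theorem puigSeq_odd_anti {n m : ℕ} (h : n ≤ m) :
    puigSeq G (2 * m + 1) ≤ puigSeq G (2 * n + 1) := by
  induction m, h using Nat.le_induction with
  | base => exact le_rfl
  | succ k _ ih => exact (puigSeq_even_succ k).2.trans ih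

/-- `L_{2n} ≤ L_{2n+1}`. -/
theorem puigSeq_even_le_succ (n : ℕ) : puigSeq G (2 * n) ≤ puigSeq G (2 * n + 1) := by
  induction n with
  | zero => simp [puigSeq_zero]
  | succ k ih =>
    have h1 : puigSeq G (2 * k + 2) ≤ puigSeq G (2 * k + 1) := puigStep_anti ih
    have h2 : puigSeq G (2 * k + 3) ≥ puigSeq G (2 * k + 2) := by
      have : puigStep (puigSeq G (2 * k + 1)) ≤ puigStep (puigSeq G (2 * k + 2)) :=
        puigStep_anti h1
      exact this
    exact h2

theorem puigSeq_even_le_odd (n m : ℕ) : puigSeq G (2 * n) ≤ puigSeq G (2 * m + 1) :=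
  (puigSeq_even_mono (le_max_left n m)).trans
    ((puigSeq_even_le_succ (max n m)).trans (puigSeq_odd_anti (le_max_right n m)))

theorem puigSeq_odd_le_one (m : ℕ) : puigSeq G (2 * m + 1) ≤ puigSeq G 1 := by
  rw [puigSeq_one]; exact le_top

theorem puigSeq_even_le_lower (n : ℕ) : puigSeq G (2 * n) ≤ puigLower G :=
  le_iSup (fun n => puigSeq G (2 * n)) n

theorem puigSubgroup_le_odd (n : ℕ) : puigSubgroup G ≤ puigSeq G (2 * n + 1) :=
  iInf_le (fun n => puigSeq G (2 * n + 1)) n

end General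

section Finite

variable {G : Type u} [Group G] [Finite G]

/-- Stabilization of both subsequences. -/
theorem exists_stable : ∃ k : ℕ, ∀ n : ℕ, k ≤ n →
    puigSeq G (2 * n) = puigLower G ∧ puigSeq G (2 * n + 1) = puigSubgroup G := by
  -- even part
  obtain ⟨k₁, hk₁⟩ : ∃ k : ℕ, ∀ n, k ≤ n → puigSeq G (2 * n) = puigSeq G (2 * k) := by
    have hfin : Set.Finite (Set.range fun n : ℕ => puigSeq G (2 * n)) := Set.toFinite _
    have hne : (Set.range fun n : ℕ => puigSeq G (2 * n)).Nonempty := Set.range_nonempty _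
    obtain ⟨M, ⟨k, rfl⟩, hM⟩ := Set.exists_max_image _ (fun H : Subgroup G => Nat.card H) hfin hne
    refine ⟨k, fun n hn => ?_⟩
    have hle := puigSeq_even_mono (G := G) hn
    exact (Subgroup.eq_of_le_of_card_ge hle (hM _ ⟨n, rfl⟩)).symm
  obtain ⟨k₂, hk₂⟩ : ∃ k : ℕ, ∀ n, k ≤ n → puigSeq G (2 * n + 1) = puigSeq G (2 * k + 1) := by
    have hfin : Set.Finite (Set.range fun n : ℕ => puigSeq G (2 * n + 1)) := Set.toFinite _
    have hne : (Set.range fun n : ℕ => puigSeq G (2 * n + 1)).Nonempty := Set.range_nonempty _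
    obtain ⟨M, ⟨k, rfl⟩, hM⟩ := Set.exists_min_image _ (fun H : Subgroup G => Nat.card H) hfin hne
    refine ⟨k, fun n hn => ?_⟩
    have hle := puigSeq_odd_anti (G := G) hn
    exact (Subgroup.eq_of_le_of_card_ge hle (hM _ ⟨n, rfl⟩))
  refine ⟨max k₁ k₂, fun n hn => ?_⟩
  have hn1 : k₁ ≤ n := le_trans (le_max_left _ _) hn
  have hn2 : k₂ ≤ n := le_trans (le_max_right _ _) hn
  constructor
  · apply le_antisymm (puigSeq_even_le_lower n)
    apply iSup_le
    intro m
    rcases le_total m n with h | h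
    · exact puigSeq_even_mono h
    · rw [hk₁ n hn1, ← hk₁ m (hn1.trans h)]
  · apply le_antisymm _ (puigSubgroup_le_odd n)
    apply le_iInf
    intro m
    rcases le_total m n with h | h
    · exact puigSeq_odd_anti h
    · rw [hk₂ n hn2, ← hk₂ m (hn2.trans h)]

theorem puigLower_le_puigSubgroup : puigLower G ≤ puigSubgroup G := by
  obtain ⟨k, hk⟩ := exists_stable (G := G)
  rw [← (hk k le_rfl).1, ← (hk k le_rfl).2]
  exact puigSeq_even_le_succ k

theorem puigStep_puigLower : puigStep (puigLower G) = puigSubgroup G := by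
  obtain ⟨k, hk⟩ := exists_stable (G := G)
  rw [← (hk k le_rfl).1, ← (hk k le_rfl).2]
  rfl

theorem puigStep_puigSubgroup : puigStep (puigSubgroup G) = puigLower G := by
  obtain ⟨k, hk⟩ := exists_stable (G := G)
  rw [← (hk k le_rfl).2, ← (hk (k + 1) (Nat.le_succ k)).1]
  rfl

end Finite

section PGroup

variable {G : Type u} [Group G]

/-- `X` normalizes `L_G(X)`. -/
theorem le_normalizer_puigStep (X : Subgroup G) :
    X ≤ Subgroup.normalizer (puigStep X : Set G) := by
  rw [Subgroup.le_normalizer_iff]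
  intro x hx
  have hle : puigStep X ≤ (puigStep X).comap (MulAut.conj x).toMonoidHom := by
    apply sSup_le
    rintro A ⟨hA, hXA⟩ a ha
    have h1 : x * a * x⁻¹ ∈ A := (Subgroup.mem_normalizer_iff.mp (hXA hx) a).1 ha
    exact (le_puigStep hA hXA) h1
  intro y hy
  exact hle hy

open Cfsg.Agent.Lib.Coprime.Ext Cfsg.Agent.Lib.OddLocal.PStep in
/-- In a finite `p`-group, `L_R(X)` contains its centralizer. -/
theorem centralizer_puigStep_le [Finite G] {p : ℕ} [Fact p.Prime] (hG : IsPGroup p G)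
    (X : Subgroup G) :
    Subgroup.centralizer (puigStep X : Set G) ≤ puigStep X := by
  by_contra hcon
  set L := puigStep X with hL
  set C := Subgroup.centralizer (L : Set G) with hC
  have hDC : L ⊓ C < C := lt_of_le_of_ne inf_le_right (fun h => hcon (by
    rw [← h]; exact inf_le_left))
  have hXL : X ≤ Subgroup.normalizer (L : Set G) := le_normalizer_puigStep X
  have hXC : X ≤ Subgroup.normalizer (C : Set G) := le_normalizer_centralizer hXL
  have hXD : X ≤ Subgroup.normalizer ((L ⊓ C : Subgroup G) : Set G) := by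
    rw [Subgroup.le_normalizer_iff]
    intro x hx y hy
    exact ⟨(Subgroup.mem_normalizer_iff.mp (hXL hx) y).1 hy.1,
      (Subgroup.mem_normalizer_iff.mp (hXC hx) y).1 hy.2⟩
  have hCD : C ≤ Subgroup.normalizer ((L ⊓ C : Subgroup G) : Set G) := by
    rw [Subgroup.le_normalizer_iff]
    intro c hc y hy
    have h1 : c * y * c⁻¹ = y := by
      have := (Subgroup.mem_centralizer_iff.mp hc) y hy.1
      rw [← this]; group
    rw [h1]; exact hy
  obtain ⟨z, hzC, hzD, hz⟩ := exists_fixed_mod (hG.to_subgroup X) (hG.to_subgroup C) hXC hXD hCD hDC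
  have hzcomm : ∀ d ∈ L ⊓ C, d * z = z * d := fun d hd =>
    (Subgroup.mem_centralizer_iff.mp hzC) d hd.1
  -- `D ⊔ ⟨z⟩` is abelian
  have hcomm : IsMulCommutative ((L ⊓ C) ⊔ Subgroup.zpowers z : Subgroup G) := by
    apply isMulCommutative_sup_zpowers _ hzcomm
    rw [subgroup_comm_iff]
    intro a ha b hb
    exact (Subgroup.mem_centralizer_iff.mp ha.2) b hb.1 |>.symm
  have hE : (L ⊓ C) ⊔ Subgroup.zpowers z ≤ L :=
    le_puigStep hcomm (sup_zpowers_normalized hXD hz)
  apply hzD
  exact ⟨hE (Subgroup.mem_sup_right (Subgroup.mem_zpowers z)), hzC⟩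

end PGroup

section PGroupSeq

variable {G : Type u} [Group G] [Finite G]

theorem centralizer_puigSeq_le {p : ℕ} [Fact p.Prime] (hG : IsPGroup p G) {i : ℕ} (hi : 0 < i) :
    Subgroup.centralizer (puigSeq G i : Set G) ≤ puigSeq G i := by
  obtain ⟨k, rfl⟩ : ∃ k, i = k + 1 := ⟨i - 1, by omega⟩
  exact centralizer_puigStep_le hG _

theorem centralizer_puigLower_le {p : ℕ} [Fact p.Prime] (hG : IsPGroup p G) :
    Subgroup.centralizer (puigLower G : Set G) ≤ puigLower G := by
  rw [← puigStep_puigSubgroup]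
  exact centralizer_puigStep_le hG _

theorem centralizer_puigSubgroup_le {p : ℕ} [Fact p.Prime] (hG : IsPGroup p G) :
    Subgroup.centralizer (puigSubgroup G : Set G) ≤ puigSubgroup G := by
  rw [← puigStep_puigLower]
  exact centralizer_puigStep_le hG _

theorem center_le_centralizer (H : Subgroup G) :
    Subgroup.center G ≤ Subgroup.centralizer (H : Set G) :=
  Subgroup.center_le_centralizer _

theorem ne_bot_of_centralizer_le [Nontrivial G] {H : Subgroup G}
    (h : Subgroup.centralizer (H : Set G) ≤ H) : H ≠ ⊥ := by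
  rintro rfl
  obtain ⟨x, hx⟩ := exists_ne (1 : G)
  apply hx
  have hm : x ∈ Subgroup.centralizer ((⊥ : Subgroup G) : Set G) := by
    rw [Subgroup.mem_centralizer_iff]
    intro y hy
    have hy1 : y = 1 := hy
    simp [hy1]
  exact h hm

end PGroupSeq

end Cfsg.Agent.Lib.Puig.Basic
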