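/-
The Puig series of a subgroup `H` of `G`, computed inside `G`.
-/
import Cfsg.Agent.Lib.Puig.Basic

set_option autoImplicit false

namespace Cfsg.Agent.Lib.Puig.Rel

open Cfsg Cfsg.Agent.Lib.Puig.Basic Cfsg.Agent.Lib.OddLocal.PStep

universe u v

section Defs

variable {G : Type u} [Group G]

/-- `L_H(X)` computed inside `G`. -/
def relStep (H X : Subgroup G) : Subgroup G :=
  sSup {A : Subgroup G | A ≤ H ∧ IsMulCommutative A ∧ X ≤ Subgroup.normalizer (A : Set G)}

/-- The Puig series of `H` inside `G`. -/
def relSeq (H : Subgroup G) : ℕ → Subgroup G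
  | 0 => ⊥
  | n + 1 => relStep H (relSeq H n)

/-- `L_*(H)` inside `G`. -/
def relLower (H : Subgroup G) : Subgroup G := ⨆ n : ℕ, relSeq H (2 * n)

/-- `L(H)` inside `G`. -/
def relUpper (H : Subgroup G) : Subgroup G := ⨅ n : ℕ, relSeq H (2 * n + 1)

theorem relSeq_zero (H : Subgroup G) : relSeq H 0 = ⊥ := rfl

theorem relSeq_succ (H : Subgroup G) (n : ℕ) : relSeq H (n + 1) = relStep H (relSeq H n) := rfl

theorem le_relStep {H X A : Subgroup G} (hAH : A ≤ H) (hA : IsMulCommutative A)
    (hXA : X ≤ Subgroup.normalizer (A : Set G)) : A ≤ relStep H X :=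
  le_sSup ⟨hAH, hA, hXA⟩

theorem relStep_le (H X : Subgroup G) : relStep H X ≤ H := by
  apply sSup_le
  rintro A ⟨h, -, -⟩
  exact h

theorem relStep_anti (H : Subgroup G) {X Y : Subgroup G} (h : X ≤ Y) :
    relStep H Y ≤ relStep H X := by
  apply sSup_le_sSup
  rintro A ⟨hA, hc, hYA⟩
  exact ⟨hA, hc, h.trans hYA⟩

theorem le_normalizer_map {K : Type v} [Group K] (f : K →* G) {X A : Subgroup K}
    (h : X ≤ Subgroup.normalizer (A : Set K)) :
    X.map f ≤ Subgroup.normalizer ((A.map f : Subgroup G) : Set G) := by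
  rw [Subgroup.le_normalizer_iff]
  rintro _ ⟨x, hx, rfl⟩ _ ⟨a, ha, rfl⟩
  refine ⟨x * a * x⁻¹, (Subgroup.mem_normalizer_iff.mp (h hx) a).1 ha, ?_⟩
  simp

theorem map_puigStep {K : Type v} [Group K] (f : K →* G) (hf : Function.Injective f)
    (X : Subgroup K) : (puigStep X).map f = relStep f.range (X.map f) := by
  apply le_antisymm
  · apply Subgroup.map_le_iff_le_comap.mpr
    apply sSup_le
    rintro A ⟨hA, hXA⟩
    apply Subgroup.map_le_iff_le_comap.mp
    apply le_relStep
    · rintro _ ⟨a, -, rfl⟩
      exact ⟨a, rfl⟩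
    · rw [subgroup_comm_iff] at hA ⊢
      rintro _ ⟨a, ha, rfl⟩ _ ⟨b, hb, rfl⟩
      rw [← map_mul, ← map_mul, hA a ha b hb]
    · exact le_normalizer_map f hXA
  · apply sSup_le
    rintro A ⟨hAr, hA, hXA⟩
    have hmap : (A.comap f).map f = A := Subgroup.map_comap_eq_self hAr
    rw [← hmap]
    apply Subgroup.map_mono
    apply le_puigStep
    · rw [subgroup_comm_iff] at hA ⊢
      intro a ha b hb
      apply hf
      rw [map_mul, map_mul]
      exact hA _ ha _ hb
    · rw [Subgroup.le_normalizer_iff] at hXA ⊢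
      intro x hx a ha
      show f (x * a * x⁻¹) ∈ A
      rw [map_mul, map_mul, map_inv]
      exact hXA (f x) ⟨x, hx, rfl⟩ (f a) ha

theorem map_puigSeq {K : Type v} [Group K] (f : K →* G) (hf : Function.Injective f) (n : ℕ) :
    (puigSeq K n).map f = relSeq f.range n := by
  induction n with
  | zero => rw [puigSeq_zero, relSeq_zero, Subgroup.map_bot]
  | succ k ih => rw [puigSeq_succ, relSeq_succ, map_puigStep f hf, ih]

theorem map_puigLower {K : Type v} [Group K] (f : K →* G) (hf : Function.Injective f) :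
    (puigLower K).map f = relLower f.range := by
  simp only [puigLower, relLower, Subgroup.map_iSup, map_puigSeq f hf]

theorem map_puigSubgroup {K : Type v} [Group K] (f : K →* G) (hf : Function.Injective f) :
    (puigSubgroup K).map f = relUpper f.range := by
  unfold puigSubgroup relUpper
  rw [Subgroup.map_iInf _ hf]
  simp only [map_puigSeq f hf]

theorem relSeq_eq_map (H : Subgroup G) (n : ℕ) :
    relSeq H n = (puigSeq ↥H n).map H.subtype := by
  rw [map_puigSeq H.subtype H.subtype_injective, Subgroup.range_subtype]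

theorem relLower_eq_map (H : Subgroup G) : relLower H = (puigLower ↥H).map H.subtype := by
  rw [map_puigLower H.subtype H.subtype_injective, Subgroup.range_subtype]

theorem relUpper_eq_map (H : Subgroup G) : relUpper H = (puigSubgroup ↥H).map H.subtype := by
  rw [map_puigSubgroup H.subtype H.subtype_injective, Subgroup.range_subtype]

/-- Image of relative Puig subgroups under a map injective on `H`. -/
theorem map_relSeq {G' : Type v} [Group G'] (f : G →* G') (H : Subgroup G)
    (hf : Function.Injective (f.comp H.subtype)) (n : ℕ) :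
    (relSeq H n).map f = relSeq (H.map f) n := by
  rw [relSeq_eq_map, Subgroup.map_map, map_puigSeq _ hf, MonoidHom.range_comp,
    Subgroup.range_subtype]

theorem map_relUpper {G' : Type v} [Group G'] (f : G →* G') (H : Subgroup G)
    (hf : Function.Injective (f.comp H.subtype)) :
    (relUpper H).map f = relUpper (H.map f) := by
  rw [relUpper_eq_map, Subgroup.map_map, map_puigSubgroup _ hf, MonoidHom.range_comp,
    Subgroup.range_subtype]

theorem map_relLower {G' : Type v} [Group G'] (f : G →* G') (H : Subgroup G)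
    (hf : Function.Injective (f.comp H.subtype)) :
    (relLower H).map f = relLower (H.map f) := by
  rw [relLower_eq_map, Subgroup.map_map, map_puigLower _ hf, MonoidHom.range_comp,
    Subgroup.range_subtype]

theorem relSeq_even_le_odd (H : Subgroup G) (n m : ℕ) :
    relSeq H (2 * n) ≤ relSeq H (2 * m + 1) := by
  rw [relSeq_eq_map, relSeq_eq_map]
  exact Subgroup.map_mono (puigSeq_even_le_odd n m)

theorem relSeq_even_le_lower (H : Subgroup G) (n : ℕ) : relSeq H (2 * n) ≤ relLower H :=
  le_iSup (fun n => relSeq H (2 * n)) n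

theorem relUpper_le_odd (H : Subgroup G) (n : ℕ) : relUpper H ≤ relSeq H (2 * n + 1) :=
  iInf_le (fun n => relSeq H (2 * n + 1)) n

theorem relSeq_le (H : Subgroup G) (n : ℕ) : relSeq H n ≤ H := by
  cases n with
  | zero => exact bot_le
  | succ k => exact relStep_le _ _

theorem relUpper_le (H : Subgroup G) : relUpper H ≤ H :=
  (relUpper_le_odd H 0).trans (relSeq_le H _)

/-- Conjugation by an element normalizing `H` preserves the relative Puig series. -/
theorem conj_mem_relSeq (H : Subgroup G) (n : ℕ) :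
    ∀ g ∈ Subgroup.normalizer (H : Set G), ∀ x ∈ relSeq H n, g * x * g⁻¹ ∈ relSeq H n := by
  induction n with
  | zero =>
    intro g _ x hx
    have hx1 : x = 1 := hx
    simp [hx1, relSeq_zero]
  | succ k ih =>
    intro g hg x hx
    rw [relSeq_succ] at hx ⊢
    have hle : relStep H (relSeq H k) ≤
        (relStep H (relSeq H k)).comap (MulAut.conj g).toMonoidHom := by
      apply sSup_le
      rintro A ⟨hAH, hA, hXA⟩ a ha
      have hAc : A.map (MulAut.conj g).toMonoidHom ≤ relStep H (relSeq H k) := by
        apply le_relStep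
        · rintro _ ⟨b, hb, rfl⟩
          exact (Subgroup.mem_normalizer_iff.mp hg b).1 (hAH hb)
        · rw [subgroup_comm_iff] at hA ⊢
          rintro _ ⟨b, hb, rfl⟩ _ ⟨c, hc, rfl⟩
          rw [← map_mul, ← map_mul, hA b hb c hc]
        · rw [Subgroup.le_normalizer_iff]
          rintro y hy _ ⟨b, hb, rfl⟩
          have hginv : g⁻¹ ∈ Subgroup.normalizer (H : Set G) := inv_mem hg
          have hy' : g⁻¹ * y * g⁻¹⁻¹ ∈ relSeq H k := ih g⁻¹ hginv y hy
          have h1 := (Subgroup.mem_normalizer_iff.mp (hXA hy') b).1 hb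
          refine ⟨_, h1, ?_⟩
          simp [MulAut.conj_apply]
          group
      exact hAc ⟨a, ha, rfl⟩
    exact hle hx

theorem mem_normalizer_of_normal {H : Subgroup G} (hH : H.Normal) (g : G) :
    g ∈ Subgroup.normalizer (H : Set G) := by
  rw [Subgroup.mem_normalizer_iff]
  intro h
  constructor
  · intro hh
    exact hH.conj_mem h hh g
  · intro hh
    have := hH.conj_mem _ hh g⁻¹
    simpa [mul_assoc] using this

theorem relSeq_normal {H : Subgroup G} (hH : H.Normal) (n : ℕ) : (relSeq H n).Normal :=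
  ⟨fun x hx g => conj_mem_relSeq H n g (mem_normalizer_of_normal hH g) x hx⟩

end Defs

section Finite

variable {G : Type u} [Group G] [Finite G]

theorem exists_rel_stable (H : Subgroup G) : ∃ k : ℕ, ∀ n : ℕ, k ≤ n →
    relSeq H (2 * n) = relLower H ∧ relSeq H (2 * n + 1) = relUpper H := by
  obtain ⟨k, hk⟩ := exists_stable (G := ↥H)
  refine ⟨k, fun n hn => ?_⟩
  rw [relSeq_eq_map, relSeq_eq_map, relLower_eq_map, relUpper_eq_map, (hk n hn).1, (hk n hn).2]
  exact ⟨rfl, rfl⟩

theorem relLower_le_relUpper (H : Subgroup G) : relLower H ≤ relUpper H := by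
  rw [relLower_eq_map, relUpper_eq_map]
  exact Subgroup.map_mono puigLower_le_puigSubgroup

theorem relStep_relLower (H : Subgroup G) : relStep H (relLower H) = relUpper H := by
  obtain ⟨k, hk⟩ := exists_rel_stable H
  rw [← (hk k le_rfl).1, ← (hk k le_rfl).2]
  rfl

theorem relStep_relUpper (H : Subgroup G) : relStep H (relUpper H) = relLower H := by
  obtain ⟨k, hk⟩ := exists_rel_stable H
  rw [← (hk k le_rfl).2, ← (hk (k + 1) (Nat.le_succ k)).1]
  rfl

/-- If `L(S) ≤ S₁ ≤ S` then `S₁` has the same Puig subgroups as `S`. -/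
theorem relLower_relUpper_of_le {S S₁ : Subgroup G} (h1 : S₁ ≤ S) (h2 : relUpper S ≤ S₁) :
    relLower S₁ = relLower S ∧ relUpper S₁ = relUpper S := by
  have hMN := relLower_le_relUpper S
  -- (a)
  have ha : ∀ n : ℕ, relSeq S₁ (2 * n) ≤ relLower S ∧ relUpper S ≤ relSeq S₁ (2 * n + 1) := by
    have hb : ∀ n : ℕ, relSeq S₁ (2 * n) ≤ relLower S → relUpper S ≤ relSeq S₁ (2 * n + 1) := by
      intro n hn
      refine le_trans ?_ (relStep_anti S₁ hn)
      rw [← relStep_relLower S]
      apply sSup_le
      rintro A ⟨hAS, hA, hXA⟩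
      apply le_relStep _ hA hXA
      refine le_trans ?_ h2
      rw [← relStep_relLower S]
      exact le_relStep hAS hA hXA
    intro n
    induction n with
    | zero =>
      have h0 : relSeq S₁ (2 * 0) ≤ relLower S := by
        show relSeq S₁ 0 ≤ _
        rw [relSeq_zero]; exact bot_le
      exact ⟨h0, hb 0 h0⟩
    | succ k ih =>
      have h0 : relSeq S₁ (2 * (k + 1)) ≤ relLower S := by
        show relStep S₁ (relSeq S₁ (2 * k + 1)) ≤ _
        refine (relStep_anti S₁ ih.2).trans ?_
        rw [← relStep_relUpper S]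
        apply sSup_le
        rintro A ⟨hAS, hA, hXA⟩
        exact le_relStep (hAS.trans h1) hA hXA
      exact ⟨h0, hb _ h0⟩
  -- (b)
  have hb : ∀ n : ℕ, relSeq S (2 * n) ≤ relLower S₁ ∧ relUpper S₁ ≤ relSeq S (2 * n + 1) := by
    have hc : ∀ n : ℕ, relSeq S (2 * n) ≤ relLower S₁ → relUpper S₁ ≤ relSeq S (2 * n + 1) := by
      intro n hn
      rw [← relStep_relLower S₁]
      refine le_trans ?_ (relStep_anti S hn)
      apply sSup_le
      rintro A ⟨hAS, hA, hXA⟩
      exact le_relStep (hAS.trans h1) hA hXA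
    intro n
    induction n with
    | zero =>
      have h0 : relSeq S (2 * 0) ≤ relLower S₁ := by
        show relSeq S 0 ≤ _
        rw [relSeq_zero]; exact bot_le
      exact ⟨h0, hc 0 h0⟩
    | succ k ih =>
      have h0 : relSeq S (2 * (k + 1)) ≤ relLower S₁ := by
        show relStep S (relSeq S (2 * k + 1)) ≤ _
        rw [← relStep_relUpper S₁]
        apply sSup_le
        rintro A ⟨hAS, hA, hXA⟩
        have hA1 : A ≤ relStep S (relSeq S (2 * k + 1)) := le_relStep hAS hA hXA
        have hA2 : A ≤ relLower S := hA1.trans (relSeq_even_le_lower S (k + 1))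
        exact le_relStep (hA2.trans (hMN.trans h2)) hA (ih.2.trans hXA)
      exact ⟨h0, hc _ h0⟩
  constructor
  · apply le_antisymm
    · apply iSup_le
      exact fun n => (ha n).1
    · apply iSup_le
      exact fun n => (hb n).1
  · apply le_antisymm
    · apply le_iInf
      exact fun n => (hb n).2
    · apply le_iInf
      exact fun n => (ha n).2

end Finite

end Cfsg.Agent.Lib.Puig.Rel
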